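import Cfsg.Agent.Lib.Ico.J2d

/-!
The icosian group `J₂` is generated by five involutions satisfying the relations `J2Rel` and has order `604800`.
-/

set_option autoImplicit false

namespace CA.TC
open CA.Fi
variable {Γ P : Type*} [Group Γ] [Group P]

theorem exists_ev_of_KS {G : ℕ → Γ} (hG : ∀ i, G i * G i = 1) {gm : List ℕ} {x : Γ} (hx : x ∈ KS G gm) :
    ∃ w, (∀ i ∈ w, i ∈ gm) ∧ ev G w = x := by
  induction hx using Subgroup.closure_induction with
  | mem x hx => obtain ⟨i, h, rfl⟩ := hx; exact ⟨[i], by simpa using h, mul_one _⟩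
  | one => exact ⟨[], by simp, rfl⟩
  | mul x y _ _ hx hy =>
    obtain ⟨u, h1, rfl⟩ := hx
    obtain ⟨v, h2, rfl⟩ := hy
    exact ⟨u ++ v, fun i hi => (List.mem_append.1 hi).elim (h1 i) (h2 i), ev_append _ _ _⟩
  | inv x _ hx =>
    obtain ⟨u, h1, rfl⟩ := hx
    exact ⟨u.reverse, fun i hi => h1 i (List.mem_reverse.1 hi), ev_rev hG _⟩

theorem card_KS_le {G : ℕ → Γ} {τ : ℕ → P} (hG : ∀ i, G i * G i = 1) (hτ : ∀ i, τ i * τ i = 1) {gm : List ℕ}
    (h : ∀ w, ev G w = 1 → ev τ w = 1) [Finite (KS G gm)] :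
    Finite (KS τ gm) ∧ Nat.card (KS τ gm) ≤ Nat.card (KS G gm) := by
  choose w hw using fun x : KS G gm => exists_ev_of_KS hG x.2
  let f : KS G gm → KS τ gm := fun x => ⟨ev τ (w x), ev_mem fun i hi => Subgroup.subset_closure ⟨i, (hw x).1 i hi, rfl⟩⟩
  have hf : Function.Surjective f := fun y => by
    obtain ⟨u, h1, h2⟩ := exists_ev_of_KS hτ y.2
    let x : KS G gm := ⟨ev G u, ev_mem fun i hi => Subgroup.subset_closure ⟨i, h1 i hi, rfl⟩⟩
    have := h (w x ++ u.reverse) (by rw [ev_append, ev_rev hG, (hw x).2, mul_inv_cancel])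
    rw [ev_append, ev_rev hτ, mul_inv_eq_one, h2] at this
    exact ⟨x, Subtype.ext this⟩
  exact ⟨Finite.of_surjective f hf, Nat.card_le_card_of_surjective f hf⟩

theorem Fam.j2Rel {G : ℕ → Γ} {e : ℕ} (h : Fam G e RJ2) : J2Rel (G 0) (G 1) (G 2) (G 3) (G 4) := by
  have h1 := h.rel
  rw [RJ2, show (0 :: pw [3, 2] 4).reverse = pw [2, 3] 4 ++ [0] from rfl] at h1
  simp only [List.forall_mem_cons, ev_pw, ev_append, ev_cons, ev_nil, mul_one, ← mul_assoc] at h1
  obtain ⟨a1, a2, a3, a4, a5, a6, a7, a8, a9, a10, a11, a12, -⟩ := h1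
  exact ⟨h.sq 0, h.sq 1, h.sq 2, h.sq 3, h.sq 4, a1, a2, a3, a4, a5, a6, a7, a8, a9, a10,
    mul_right_cancel ((h.sq 0).trans a11.symm), a12⟩

theorem J2Rel.prod {a b c d e : Γ} {a' b' c' d' e' : P} (h : J2Rel a b c d e) (h' : J2Rel a' b' c' d' e') :
    J2Rel (a, a') (b, b') (c, c') (d, d') (e, e') :=
  ⟨Prod.ext h.aa h'.aa, Prod.ext h.bb h'.bb, Prod.ext h.cc h'.cc, Prod.ext h.dd h'.dd, Prod.ext h.ee h'.ee,
    Prod.ext h.ab h'.ab, Prod.ext h.ac h'.ac, Prod.ext h.ad h'.ad, Prod.ext h.ae h'.ae, Prod.ext h.bc h'.bc,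
    Prod.ext h.bd h'.bd, Prod.ext h.be h'.be, Prod.ext h.cd h'.cd, Prod.ext h.ce h'.ce, Prod.ext h.de h'.de,
    Prod.ext h.x1 h'.x1, Prod.ext h.x2 h'.x2⟩

/-- a group of order `604800` generated by a `J2Rel` family maps onto any group generated by such a family -/
theorem J2Rel.hom {a b c d e : Γ} {a' b' c' d' e' : P} (h : J2Rel a b c d e) (h' : J2Rel a' b' c' d' e')
    (ht : Subgroup.closure {a, b, c, d, e} = ⊤) (hc : Nat.card Γ = 604800) :
    ∃ φ : Γ →* P, φ a = a' ∧ φ b = b' ∧ φ c = c' ∧ φ d = d' ∧ φ e = e' := by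
  obtain ⟨f, hK⟩ := (h.prod h').card_le
  set K := Subgroup.closure {(a, a'), (b, b'), (c, c'), (d, d'), (e, e')} with hKd
  let π : K →* Γ := (MonoidHom.fst Γ P).comp K.subtype
  have hs : Function.Surjective π := by
    rw [← MonoidHom.range_eq_top, MonoidHom.range_comp, Subgroup.range_subtype, hKd, MonoidHom.map_closure, ← ht]
    simp [Set.image_insert_eq]
  have : Finite Γ := Finite.of_surjective _ hs
  let E := MulEquiv.ofBijective π (hs.bijective_of_nat_card_le (hc ▸ hK))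
  have key : ∀ x y, (x, y) ∈ ({(a, a'), (b, b'), (c, c'), (d, d'), (e, e')} : Set (Γ × P)) →
      (((MonoidHom.snd Γ P).comp K.subtype).comp E.symm.toMonoidHom) x = y := fun x y hxy => by
    have : E.symm x = ⟨(x, y), Subgroup.subset_closure hxy⟩ := E.symm_apply_eq.2 rfl
    change (E.symm x).1.2 = y
    rw [this]
  exact ⟨_, key _ _ (by simp), key _ _ (by simp), key _ _ (by simp), key _ _ (by simp), key _ _ (by simp)⟩

end CA.TC

namespace CA.Ico
open Cfsg Cfsg.Spor Quaternion CA.Fi CA.TC Equiv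

noncomputable def ρ (p : ℕ) : twoJ2 := rf (phV (vec p))
noncomputable def gn (i : ℕ) : twoJ2 := if i < 4 then ρ (nthL 0 ix i) else 1

theorem gd_vec {p : ℕ} (h : p < 315) : Gd (phV (vec p)) := gd_iff.1 ((fV_eq _ _).symm.trans (allN_iff.1 c_gd p h))

theorem gn_sq (i : ℕ) : gn i * gn i = 1 := by
  rw [gn]; split_ifs
  exacts [rf_sq _, mul_one _]

theorem act1 (i : ℕ) {p : ℕ} (h : p < 315) : MJ.T i p < 315 ∧ gn i * ρ p * gn i = ρ (MJ.T i p) := by
  by_cases hi : i < 4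
  · have h1 : cT i = true ∧ nthL 0 ix i < 315 := by
      interval_cases i
      exacts [⟨c_T0, by decide +kernel⟩, ⟨c_T1, by decide +kernel⟩, ⟨c_T2, by decide +kernel⟩, ⟨c_T3, by decide +kernel⟩]
    obtain ⟨h1, h2⟩ := h1
    rw [cT, fV_eq] at h1
    have h3 := allN_iff.1 h1 p h
    simp only [frc_eq, fV_eq, an_iff, lt'_iff] at h3
    rw [gn, if_pos hi]
    exact ⟨h3.1, chk_spec h3.2 (gd_vec h2) (gd_vec h) (gd_vec h3.1)⟩
  · rw [MJ.T_ge (Or.inl (not_lt.1 hi)), gn, if_neg hi, one_mul, mul_one]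
    exact ⟨h, rfl⟩

theorem act (w : List ℕ) : ∀ {p : ℕ}, p < 315 →
    MJ.ap w p < 315 ∧ (ev gn w)⁻¹ * ρ p * ev gn w = ρ (MJ.ap w p) := by
  induction w with
  | nil => exact fun h => ⟨h, by simp; rfl⟩
  | cons i w ih =>
    intro p h
    obtain ⟨h1, h2⟩ := act1 i h
    rw [PM.ap_cons, ← (ih h1).2, ← h2, ev_cons, mul_inv_rev, inv_eq_of_mul_eq_one_right (gn_sq i)]
    exact ⟨(ih h1).1, by simp only [mul_assoc]⟩

theorem ρ_inj {p q : ℕ} (hp : p < 315) (hq : q < 315) (h : ρ p = ρ q) : p = q := by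
  have hv : phV v0 ∈ icoLeech := by
    have : an (an (cond v0.x) (an (cond v0.y) (cond v0.z))) (an (dv (v0.x.sub v0.y) hh) (an (dv (v0.y.sub v0.z) hh)
      (dv ((v0.x.add v0.y).add v0.z) hh.star))) = true := by decide +kernel
    simp only [an_iff, cond_iff_mem, dv_h, dv_h', ph_sub, ph_add] at this
    exact ⟨fun t => by fin_cases t; exacts [this.1.1, this.1.2.1, this.1.2.2], this.2⟩
  have h1 : W8 (vec p) v0 = W8 (vec q) v0 := phV_inj (by
    rw [phV_W8, phV_W8, ← rf_apply (gd_vec hp) ⟨_, hv⟩, ← rf_apply (gd_vec hq) ⟨_, hv⟩]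
    exact congrArg (fun x : twoJ2 => (8 : ℤ) • ((x : Perm icoLeech) ⟨_, hv⟩ : V3)) h)
  have h2 : StrictMonoOn (fun p => key (W8 (vec p) v0)) (Set.Iic 314) :=
    strictMonoOn_Iic_of_lt_succ fun m hm => by
      have := allN_iff.1 c_key m hm
      simp only [fV_eq, w8_eq, decide_eq_true_eq] at this
      exact this
  exact h2.injOn (Nat.lt_succ_iff.1 hp) (Nat.lt_succ_iff.1 hq) (congrArg key h1)

section gen
variable {K : Subgroup twoJ2} (hK : ∀ p < 315, ρ p ∈ K)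
include hK

theorem of_refl {p : ℕ} (hp : p < 315) {r : V3} (hr : Gd r)
    (h : Gd (qrefl (phV (vec p)) r) → rf (qrefl (phV (vec p)) r) ∈ K) : rf r ∈ K := by
  have := h ((gd_vec hp).qrefl hr)
  rw [← rf_conj (gd_vec hp) hr] at this
  exact (K.mul_mem_cancel_left (hK p hp)).1 ((K.mul_mem_cancel_right (hK p hp)).1 this)

theorem sw01 {r : V3} (hr : Gd r) (h : Gd ![r 1, r 0, r 2] → rf ![r 1, r 0, r 2] ∈ K) : rf r ∈ K := by
  refine of_refl hK (p := 214) (by norm_num) hr ?_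
  rwa [show vec 214 = ⟨hh, hh.smul (-1), zero⟩ from V.beq_iff.1 (by decide +kernel), phV, ph_smul, ph_hh, ph_zero,
    neg_one_zsmul, qrefl_s01]
theorem sw12 {r : V3} (hr : Gd r) (h : Gd ![r 0, r 2, r 1] → rf ![r 0, r 2, r 1] ∈ K) : rf r ∈ K := by
  refine of_refl hK (p := 93) (by norm_num) hr ?_
  rwa [show vec 93 = ⟨zero, hh, hh.smul (-1)⟩ from V.beq_iff.1 (by decide +kernel), phV, ph_smul, ph_hh, ph_zero,
    neg_one_zsmul, qrefl_s12]

theorem of_memV {v : V} (h : memV tL 315 v = true) : rf (phV v) ∈ K := by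
  obtain ⟨p, h1, rfl⟩ := memV_spec h
  exact hK p h1

omit hK in
theorem enum {y : Q} (h1 : cond y = true) (h2 : y.tr ≤ 16) : (y.tr ≤ 7 → y = zero) ∧
    (y.tr ≤ 10 → y = zero ∨ y.nm = ⟨4, 0⟩) ∧ (dv (one.sub y) hh = true → memQ tF1 56 y = true) ∧
    (dv y hh = true → memQ tF0 121 y = true ∧ (y = zero ∨ y.nm = ⟨8, 0⟩)) := by
  simpa only [body, fI_eq, fZ_eq, an_iff, cond'_imp, cond'_or, decide_eq_true_eq, Q.beq_iff, ZT.beq_iff]
    using allQ_spec c_E h1 h2

omit hK in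
theorem tr_sum {v : V} (h : (v.x.nm.add v.y.nm).add v.z.nm = ⟨16, 0⟩) : v.x.tr + v.y.tr + v.z.tr = 32 := by
  simp only [ZT.ext_iff, ZT.add, Int.add_def, Q.tr_eq] at h ⊢
  omega

theorem caseA {r : V3} (hr : Gd r) (h : normSq (r 0) = 1) : rf r ∈ K := by
  have h1 : star (r 0) * r 0 = 1 := by rw [star_mul_self, h]; rfl
  have h2 := hr.unit (star_mem (hr.1.1 0)) (by rwa [star_star])
  rw [← rf_smul hr h2]
  obtain ⟨⟨x, y, z⟩, e, hv⟩ := exists_phV h2
  obtain rfl : x = one := ph_inj (by rw [ph_one, ← h1]; exact (congrFun e 0).symm)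
  rw [e]
  simp only [gd, an_iff, ZT.beq_iff] at hv
  obtain ⟨⟨-, cy, cz⟩, ⟨d1, d2, d3⟩, hn⟩ := hv
  have d4 : dv (one.sub z) hh = true := by
    rw [dv_h, ph_sub] at d1 d2 ⊢
    convert li_sub d1 (li_mul (neg_mem (one_mem _)) d2) using 1
    noncomm_ring
  have t := tr_sum (v := ⟨one, y, z⟩) hn
  have t1 : one.tr = 8 := by decide +kernel
  have n0 : ∀ y, cond y = true → dv (one.sub y) hh = true → 8 ≤ y.tr := fun y h1 h2 => by
    by_contra h3
    rw [(enum h1 (by omega)).1 (by omega)] at h2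
    exact absurd h2 (by decide +kernel)
  have ty := n0 y cy d1
  have tz := n0 z cz d4
  simp only at t
  obtain ⟨p, hp, rfl⟩ := memQ_spec ((enum cy (by omega)).2.2.1 d1)
  obtain ⟨q, hq, rfl⟩ := memQ_spec ((enum cz (by omega)).2.2.1 d4)
  have := c_A
  simp only [allN_iff, fQ_eq, fZ_eq, cond'_imp, an_iff, ZT.beq_iff] at this
  refine of_memV hK (this p hp q hq ⟨?_, d3⟩)
  rw [show one.nm = ⟨4, 0⟩ from rfl] at hn
  simp only [ZT.ext_iff, ZT.add, Int.add_def] at hn ⊢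
  omega

theorem caseC {r : V3} (hr : Gd r) (h1 : r 1 = 0) (h2 : r 2 = 0) : rf r ∈ K := by
  have e : r = ((1 / 2 : ℝ) • r 0) • phV (vec 219) := by
    rw [show vec 219 = ⟨one.smul 2, zero, zero⟩ from V.beq_iff.1 (by decide +kernel), phV, ph_smul, ph_one, ph_zero]
    ext1 t; fin_cases t
    · change r 0 = (1 / 2 : ℝ) • r 0 * (2 : ℤ) • 1
      rw [mul_smul_comm, mul_one]; module
    · exact h1.trans (mul_zero _).symm
    · exact h2.trans (mul_zero _).symm
  rw [e, rf_smul (gd_vec (by norm_num)) (e ▸ hr)]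
  exact hK _ (by norm_num)

theorem caseB {r : V3} (hr : Gd r) (h : r 2 = 0) : rf r ∈ K := by
  by_cases h1 : r 1 = 0
  · exact caseC hK hr h1 h
  by_cases h0 : r 0 = 0
  · exact sw01 hK hr fun h2 => caseC hK h2 h0 h
  have hx : r 0 ∈ leftIdeal icoH := by
    convert li_sub hr.1.2.1 (li_mul (neg_mem (one_mem _)) hr.1.2.2.1) using 1
    rw [h]; noncomm_ring
  have hn : normSq (r 0) = 2 := by
    obtain ⟨⟨x, y, z⟩, rfl, hv⟩ := exists_phV hr
    obtain rfl : z = zero := ph_inj (by rw [ph_zero]; exact h)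
    simp only [gd, an_iff, ZT.beq_iff] at hv
    obtain ⟨⟨cx, cy, -⟩, ⟨-, d2, -⟩, hn⟩ := hv
    have t := tr_sum (v := ⟨x, y, zero⟩) hn
    have t1 : zero.tr = 0 := by decide +kernel
    simp only at t
    rw [dv_h, ph_sub, ph_zero, sub_zero, ← dv_h] at d2
    have k : ∀ y, cond y = true → dv y hh = true → ph y ≠ 0 → y.tr ≤ 16 → y.nm = ⟨8, 0⟩ := fun y a b c d =>
      ((enum a d).2.2.2 b).2.resolve_left fun e => c (e ▸ ph_zero)
    have : x.tr ≤ 16 := by
      by_contra h3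
      have := y.tr_eq
      rw [k y cy d2 h1 (by omega)] at this
      simp only at this; omega
    change normSq (ph x) = 2
    rw [normSq_ph, k x cx (dv_h.2 hx) h0 this]; norm_num [zt]
  obtain ⟨a, ha, e⟩ := hx
  have h2 : star a * a = 1 := by
    have : normSq icoH = 2 := by
      rw [← ph_hh, normSq_ph, show hh.nm = ⟨8, 0⟩ from rfl]; norm_num [zt]
    rw [e, map_mul, this] at hn
    rw [star_mul_self, show normSq a = 1 by linarith]; rfl
  have h3 := hr.unit (star_mem ha) (by rwa [star_star])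
  rw [← rf_smul hr h3]
  obtain ⟨⟨x, y, z⟩, e2, hv⟩ := exists_phV h3
  obtain rfl : x = hh := ph_inj (by
    rw [ph_hh, ← one_mul icoH, ← h2, mul_assoc, ← e]; exact (congrFun e2 0).symm)
  obtain rfl : z = zero := ph_inj (by
    rw [ph_zero, ← mul_zero (star a), ← h]; exact (congrFun e2 2).symm)
  rw [e2]
  have hv' := hv
  simp only [gd, an_iff, ZT.beq_iff] at hv'
  obtain ⟨⟨-, cy, -⟩, ⟨-, d2, -⟩, hn⟩ := hv'
  have t := tr_sum (v := ⟨hh, y, zero⟩) hn
  have t1 : zero.tr = 0 := by decide +kernel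
  have t2 : hh.tr = 16 := by decide +kernel
  simp only at t
  rw [dv_h, ph_sub, ph_zero, sub_zero, ← dv_h] at d2
  obtain ⟨p, hp, rfl⟩ := memQ_spec ((enum cy (by omega)).2.2.2 d2).1
  have := c_B
  simp only [allN_iff, fQ_eq, cond'_imp] at this
  exact of_memV hK (this p hp hv)

theorem top_of_ρ : K = ⊤ := by
  refine eq_top_of_rf fun r hr => ?_
  have key : ∃ t, r t = 0 ∨ normSq (r t) = 1 := by
    obtain ⟨v, rfl, hv⟩ := exists_phV hr
    simp only [gd, an_iff, ZT.beq_iff] at hv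
    obtain ⟨⟨cx, cy, cz⟩, -, hn⟩ := hv
    have t := tr_sum hn
    have k : ∀ y, cond y = true → y.tr ≤ 10 → ph y = 0 ∨ normSq (ph y) = 1 := fun y a b =>
      ((enum a (by omega)).2.1 b).imp (fun e => by rw [e, ph_zero]) fun e => by rw [normSq_ph, e]; norm_num [zt]
    rcases (by omega : v.x.tr ≤ 10 ∨ v.y.tr ≤ 10 ∨ v.z.tr ≤ 10) with h | h | h
    exacts [⟨0, k _ cx h⟩, ⟨1, k _ cy h⟩, ⟨2, k _ cz h⟩]
  obtain ⟨t, h | h⟩ := key <;> fin_cases t
  · exact sw01 hK hr fun h1 => sw12 hK h1 fun h2 => caseB hK h2 h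
  · exact sw12 hK hr fun h1 => caseB hK h1 h
  · exact caseB hK hr h
  · exact caseA hK hr h
  · exact sw01 hK hr fun h1 => caseA hK h1 h
  · exact sw12 hK hr fun h1 => sw01 hK h1 fun h2 => caseA hK h2 h

end gen

theorem top_of_gn {K : Subgroup twoJ2} (h : ∀ i < 4, gn i ∈ K) : K = ⊤ := by
  have h1 : ∀ i, gn i ∈ K := fun i => by
    by_cases hi : i < 4
    exacts [h i hi, by rw [gn, if_neg hi]; exact K.one_mem]
  refine top_of_ρ fun p hp => ?_
  rw [← beq_iff.1 (allN_iff.1 c_wp p hp), ← (act _ (by norm_num)).2]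
  exact mul_mem (mul_mem (inv_mem (ev_mem fun i _ => h1 i)) (h1 0)) (ev_mem fun i _ => h1 i)

/-- the images of the four reflections -/
noncomputable def GJ (i : ℕ) : Spor.J2 := QuotientGroup.mk (gn i)
theorem ev_GJ (w : List ℕ) : ev GJ w = QuotientGroup.mk (ev gn w) := (map_ev (QuotientGroup.mk' _) gn w).symm
theorem GJ_sq (i : ℕ) : GJ i * GJ i = 1 := by rw [GJ, ← QuotientGroup.mk_mul, gn_sq]; rfl

theorem ev_GJ_eq_one {w : List ℕ} (h : fx w = true) : ev GJ w = 1 := by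
  rw [ev_GJ, QuotientGroup.eq_one_iff, Subgroup.mem_center_iff]
  have : Subgroup.centralizer {ev gn w} = ⊤ := top_of_gn fun i hi => by
    have h1 : nthL 0 ix i ∈ ix ∧ nthL 0 ix i < 315 := by interval_cases i <;> decide +kernel
    have h2 := (act w h1.2).2
    rw [beq_iff.1 (allL_iff.1 h _ h1.1), mul_assoc, inv_mul_eq_iff_eq_mul] at h2
    rw [gn, if_pos hi, Subgroup.mem_centralizer_singleton_iff, h2]
  exact fun g => Subgroup.mem_centralizer_singleton_iff.1 (this ▸ Subgroup.mem_top g)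

theorem τ_of_GJ (w : List ℕ) (h : ev GJ w = 1) : ev MJ.τ w = 1 := by
  rw [ev_GJ, QuotientGroup.eq_one_iff, Subgroup.mem_center_iff] at h
  rw [← inv_eq_one]; ext p
  rw [← PM.ap_eq c_inv]
  rcases lt_or_ge p 315 with hp | hp
  · refine ρ_inj (act w hp).1 hp ?_
    rw [← (act w hp).2, mul_assoc, h, inv_mul_cancel_left]; rfl
  · exact MJ.ap_ge w hp

theorem top_of_GJ {K : Subgroup Spor.J2} (h : ∀ i < 4, GJ i ∈ K) : K = ⊤ := by
  have := top_of_gn (K := K.comap (QuotientGroup.mk' _)) h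
  rw [eq_top_iff]
  rintro ⟨x⟩ -
  exact (this ▸ Subgroup.mem_top x : x ∈ K.comap (QuotientGroup.mk' _))

/-- **the icosian group `J₂`**: generators, relations and order -/
theorem exists_J2Rel : ∃ a b c d e : Spor.J2, J2Rel a b c d e ∧ Subgroup.closure {a, b, c, d, e} = ⊤ ∧
    Nat.card Spor.J2 = 604800 := by
  have F : Fam GJ 4 RR := ⟨GJ_sq, rfl, fun w hw => ev_GJ_eq_one (allL_iff.1 c_R w hw)⟩
  have R := (F.subst ws RJ2 (by decide +kernel)).j2Rel
  have ht : Subgroup.closure {ev GJ (ws.getD 0 []), ev GJ (ws.getD 1 []), ev GJ (ws.getD 2 []), ev GJ (ws.getD 3 []),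
      ev GJ (ws.getD 4 [])} = ⊤ := top_of_GJ fun i hi => by
    have h3 := F.rel _ List.mem_cons_self
    rw [ev_cons, ← ev_flatMap, mul_eq_one_iff_eq_inv] at h3
    interval_cases i
    · exact Subgroup.subset_closure (by simp [ws])
    · exact Subgroup.subset_closure (by simp [ws])
    · exact Subgroup.subset_closure (by simp [ws])
    · rw [h3]
      refine inv_mem (ev_mem fun j hj => Subgroup.subset_closure ?_)
      have := (by decide +kernel : ∀ j ∈ wt, j < 5) j hj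
      interval_cases j <;> simp
  obtain ⟨f, hc⟩ := R.card_le
  rw [ht] at f hc
  have e : KS GJ [0, 1, 2, 3] = ⊤ := top_of_GJ fun i hi => Subgroup.subset_closure ⟨i, by interval_cases i <;> simp, rfl⟩
  have : Finite (KS GJ [0, 1, 2, 3]) := e ▸ f
  obtain ⟨f2, h2⟩ := card_KS_le (gm := [0, 1, 2, 3]) GJ_sq (PM.τ_sq c_inv) τ_of_GJ
  have h3 := PM.lower c_inv c_ch (by decide +kernel) f2
  rw [show PM.bound ch = 604800 by decide +kernel] at h3
  rw [e] at h2
  refine ⟨_, _, _, _, _, R, ht, ?_⟩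
  rw [← Subgroup.card_top]; omega

theorem card_J2 : Nat.card Spor.J2 = 604800 := by
  obtain ⟨_, _, _, _, _, -, -, h⟩ := exists_J2Rel; exact h

/-- a group of order `604800` generated by a `J2Rel` family is the Hall–Janko group -/
theorem isoJ2 {Γ : Type*} [Group Γ] {a b c d e : Γ} (h : J2Rel a b c d e) (ht : Subgroup.closure {a, b, c, d, e} = ⊤)
    (hc : Nat.card Γ = 604800) : IsoJ2 Γ := by
  obtain ⟨a', b', c', d', e', h', ht', hc'⟩ := exists_J2Rel
  obtain ⟨φ, h1, h2, h3, h4, h5⟩ := h.hom h' ht hc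
  have hs : Function.Surjective φ := by
    rw [← MonoidHom.range_eq_top, MonoidHom.range_eq_map, ← ht, MonoidHom.map_closure, ← ht']
    simp [Set.image_insert_eq, *]
  have : Finite Γ := Nat.finite_of_card_ne_zero (by omega)
  exact ⟨MulEquiv.ofBijective φ (hs.bijective_of_nat_card_le (by omega))⟩

end CA.Ico
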