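import Cfsg.Prelude.Def_Spor_J2
import Cfsg.Agent.Lib.TC.PModel

/-!
Integer coordinates for icosians; the icosian lattice and its reflections.
-/

set_option autoImplicit false

namespace CA.Ico
open Cfsg.Spor Quaternion CA.Fi CA.TC

/-- `a + b τ` -/
@[ext] structure ZT where
  a : ℤ
  b : ℤ

namespace ZT
def add (x y : ZT) : ZT := ⟨Int.add x.a y.a, Int.add x.b y.b⟩
def sub (x y : ZT) : ZT := ⟨Int.sub x.a y.a, Int.sub x.b y.b⟩
def neg (x : ZT) : ZT := ⟨Int.neg x.a, Int.neg x.b⟩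
def smul (k : ℤ) (x : ZT) : ZT := ⟨Int.mul k x.a, Int.mul k x.b⟩
def mul (x y : ZT) : ZT := ⟨Int.add (Int.mul x.a y.a) (Int.mul x.b y.b),
  Int.add (Int.add (Int.mul x.a y.b) (Int.mul x.b y.a)) (Int.mul x.b y.b)⟩
def dv (x : ZT) (k : ℤ) : ZT := ⟨Int.ediv x.a k, Int.ediv x.b k⟩
noncomputable def beq (x y : ZT) : Bool := an (decide (x.a = y.a)) (decide (x.b = y.b))
theorem beq_iff {x y : ZT} : beq x y = true ↔ x = y := by simp [beq, ZT.ext_iff]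
/-- the trace of the square -/
def f (x : ZT) : ℤ := 2 * x.a ^ 2 + 2 * x.a * x.b + 3 * x.b ^ 2
theorem f_nonneg (x : ZT) : 0 ≤ x.f := by
  rw [f]; nlinarith [sq_nonneg (x.a + x.b), sq_nonneg x.a, sq_nonneg x.b]
end ZT

theorem tau_sq : tau * tau = tau + 1 := by
  have := Real.mul_self_sqrt (show (0 : ℝ) ≤ 5 by norm_num)
  rw [tau]; nlinarith

noncomputable def zt (x : ZT) : ℝ := x.a + x.b * tau
theorem zt_add (x y : ZT) : zt (x.add y) = zt x + zt y := by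
  simp only [zt, ZT.add, Int.add_def]; push_cast; ring
theorem zt_sub (x y : ZT) : zt (x.sub y) = zt x - zt y := by
  have : ∀ a b : ℤ, Int.sub a b = a - b := fun _ _ => rfl
  simp only [zt, ZT.sub, this]; push_cast; ring
theorem zt_neg (x : ZT) : zt x.neg = -zt x := by
  have : ∀ a : ℤ, Int.neg a = -a := fun _ => rfl
  simp only [zt, ZT.neg, this]; push_cast; ring
theorem zt_smul (k : ℤ) (x : ZT) : zt (x.smul k) = k * zt x := by
  simp only [zt, ZT.smul, Int.mul_def]; push_cast; ring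
theorem zt_mul (x y : ZT) : zt (x.mul y) = zt x * zt y := by
  simp only [zt, ZT.mul, Int.add_def, Int.mul_def]; push_cast
  linear_combination (-(x.b * y.b : ℝ)) * tau_sq

theorem zt_inj {x y : ZT} (h : zt x = zt y) : x = y := by
  have hb : x.b = y.b := by
    by_contra hb
    have h5 : Irrational (Real.sqrt 5) := by simpa using (by norm_num : Nat.Prime 5).irrational_sqrt
    refine (h5.mul_intCast (sub_ne_zero.2 hb)).ne_int (2 * (y.a - x.a) - (x.b - y.b)) ?_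
    simp only [zt, tau] at h
    push_cast; linarith
  refine ZT.ext ?_ hb
  rw [zt, zt, hb] at h
  exact_mod_cast add_right_cancel h

/-- twice an icosian -/
@[ext] structure Q where
  r : ZT
  i : ZT
  j : ZT
  k : ZT

namespace Q
def add (x y : Q) : Q := ⟨x.r.add y.r, x.i.add y.i, x.j.add y.j, x.k.add y.k⟩
def sub (x y : Q) : Q := ⟨x.r.sub y.r, x.i.sub y.i, x.j.sub y.j, x.k.sub y.k⟩
def smul (c : ℤ) (x : Q) : Q := ⟨x.r.smul c, x.i.smul c, x.j.smul c, x.k.smul c⟩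
def star (x : Q) : Q := ⟨x.r, x.i.neg, x.j.neg, x.k.neg⟩
def dv (x : Q) (c : ℤ) : Q := ⟨x.r.dv c, x.i.dv c, x.j.dv c, x.k.dv c⟩
def mul (x y : Q) : Q :=
  ⟨(((x.r.mul y.r).sub (x.i.mul y.i)).sub (x.j.mul y.j)).sub (x.k.mul y.k),
   (((x.r.mul y.i).add (x.i.mul y.r)).add (x.j.mul y.k)).sub (x.k.mul y.j),
   (((x.r.mul y.j).sub (x.i.mul y.k)).add (x.j.mul y.r)).add (x.k.mul y.i),
   (((x.r.mul y.k).add (x.i.mul y.j)).sub (x.j.mul y.i)).add (x.k.mul y.r)⟩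
def nm (x : Q) : ZT := (((x.r.mul x.r).add (x.i.mul x.i)).add (x.j.mul x.j)).add (x.k.mul x.k)
def tr (x : Q) : ℤ := x.r.f + x.i.f + x.j.f + x.k.f
noncomputable def beq (x y : Q) : Bool := an (x.r.beq y.r) (an (x.i.beq y.i) (an (x.j.beq y.j) (x.k.beq y.k)))
theorem beq_iff {x y : Q} : beq x y = true ↔ x = y := by simp [beq, ZT.beq_iff, Q.ext_iff]
theorem tr_eq (x : Q) : x.tr = 2 * x.nm.a + x.nm.b := by
  simp only [tr, nm, ZT.f, ZT.add, ZT.mul, Int.add_def, Int.mul_def]; ring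
theorem tr_nonneg (x : Q) : 0 ≤ x.tr := by
  have := x.r.f_nonneg; have := x.i.f_nonneg; have := x.j.f_nonneg; have := x.k.f_nonneg
  rw [tr]; omega
end Q

noncomputable def ph (y : Q) : ℍ[ℝ] := ⟨zt y.r / 2, zt y.i / 2, zt y.j / 2, zt y.k / 2⟩
@[simp] theorem ph_re (y : Q) : (ph y).re = zt y.r / 2 := rfl
@[simp] theorem ph_imI (y : Q) : (ph y).imI = zt y.i / 2 := rfl
@[simp] theorem ph_imJ (y : Q) : (ph y).imJ = zt y.j / 2 := rfl
@[simp] theorem ph_imK (y : Q) : (ph y).imK = zt y.k / 2 := rfl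
theorem ph_add (x y : Q) : ph (x.add y) = ph x + ph y := by
  ext <;> simp [Q.add, zt_add] <;> ring
theorem ph_sub (x y : Q) : ph (x.sub y) = ph x - ph y := by
  ext <;> simp [Q.sub, zt_sub] <;> ring
theorem ph_smul (k : ℤ) (x : Q) : ph (x.smul k) = k • ph x := by
  rw [← Int.cast_smul_eq_zsmul ℝ]
  ext <;> simp [Q.smul, zt_smul] <;> ring
theorem ph_star (x : Q) : ph x.star = star (ph x) := by
  ext <;> simp [Q.star, zt_neg] <;> ring
theorem ph_mul (x y : Q) : ph (x.mul y) = (2 : ℤ) • (ph x * ph y) := by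
  rw [two_zsmul]
  ext <;> simp [Q.mul, zt_add, zt_sub, zt_mul] <;> ring
theorem ph_inj {x y : Q} (h : ph x = ph y) : x = y := by
  obtain ⟨h1, h2, h3, h4⟩ := Quaternion.ext_iff.1 h
  simp only [ph_re, ph_imI, ph_imJ, ph_imK] at h1 h2 h3 h4
  exact Q.ext (zt_inj (by linarith)) (zt_inj (by linarith)) (zt_inj (by linarith)) (zt_inj (by linarith))
theorem normSq_ph (x : Q) : normSq (ph x) = zt x.nm / 4 := by
  simp only [normSq_def', ph_re, ph_imI, ph_imJ, ph_imK, Q.nm, zt_add, zt_mul]; ring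

theorem zsmul_cancel {k : ℤ} (hk : k ≠ 0) {x y : ℍ[ℝ]} (h : k • x = k • y) : x = y := by
  rw [← Int.cast_smul_eq_zsmul ℝ, ← Int.cast_smul_eq_zsmul ℝ] at h
  exact smul_right_injective _ (Int.cast_ne_zero.2 hk) h

/-! ### Forcing -/
noncomputable def fI (x : ℤ) (k : ℤ → Bool) : Bool :=
  Int.casesOn x (fun n => frc n fun n => k (Int.ofNat n)) (fun n => frc n fun n => k (Int.negSucc n))
theorem fI_eq (x : ℤ) (k : ℤ → Bool) : fI x k = k x := by cases x <;> simp only [fI, frc_eq]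
noncomputable def fZ (x : ZT) (k : ZT → Bool) : Bool := fI x.a fun a => fI x.b fun b => k ⟨a, b⟩
theorem fZ_eq (x : ZT) (k : ZT → Bool) : fZ x k = k x := by simp only [fZ, fI_eq]
noncomputable def fQ (x : Q) (k : Q → Bool) : Bool :=
  fZ x.r fun a => fZ x.i fun b => fZ x.j fun c => fZ x.k fun d => k ⟨a, b, c, d⟩
theorem fQ_eq (x : Q) (k : Q → Bool) : fQ x k = k x := by simp only [fQ, fZ_eq]

/-! ### The icosian ring -/

def evB (k : ℕ) (x : ℤ) : Bool := Nat.beq (Nat.mod (Int.natAbs x) k) 0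
theorem evB_iff {k : ℕ} {x : ℤ} : evB k x = true ↔ (k : ℤ) ∣ x := by
  rw [evB, beq_iff, Int.natCast_dvd, Nat.dvd_iff_mod_eq_zero]; rfl

noncomputable def cond (y : Q) : Bool :=
  an (evB 2 (Int.add (Int.add y.r.a y.k.a) (Int.add y.j.b y.k.b)))
  (an (evB 2 (Int.add (Int.add y.r.b y.j.b) (Int.add y.j.a y.k.a)))
  (an (evB 2 (Int.add (Int.add y.i.a y.j.a) (Int.add y.j.b y.k.b)))
    (evB 2 (Int.add (Int.add y.i.b y.j.a) (Int.add y.k.a y.k.b)))))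
theorem cond_iff {y : Q} : cond y = true ↔ 2 ∣ y.r.a + y.k.a + (y.j.b + y.k.b) ∧ 2 ∣ y.r.b + y.j.b + (y.j.a + y.k.a) ∧
    2 ∣ y.i.a + y.j.a + (y.j.b + y.k.b) ∧ 2 ∣ y.i.b + y.j.a + (y.k.a + y.k.b) := by
  simp only [cond, an_iff, evB_iff]; rfl

def bas : List Q := [⟨⟨2, 0⟩, ⟨0, 0⟩, ⟨0, 0⟩, ⟨0, 0⟩⟩, ⟨⟨0, 2⟩, ⟨0, 0⟩, ⟨0, 0⟩, ⟨0, 0⟩⟩,
  ⟨⟨0, 0⟩, ⟨2, 0⟩, ⟨0, 0⟩, ⟨0, 0⟩⟩, ⟨⟨0, 0⟩, ⟨0, 2⟩, ⟨0, 0⟩, ⟨0, 0⟩⟩,
  ⟨⟨1, 0⟩, ⟨1, 0⟩, ⟨1, 0⟩, ⟨1, 0⟩⟩, ⟨⟨0, 1⟩, ⟨0, 1⟩, ⟨0, 1⟩, ⟨0, 1⟩⟩,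
  ⟨⟨1, 0⟩, ⟨1, -1⟩, ⟨0, 0⟩, ⟨0, 1⟩⟩, ⟨⟨0, 1⟩, ⟨-1, 0⟩, ⟨0, 0⟩, ⟨1, 1⟩⟩]

theorem mem_of_bas {T : AddSubgroup ℍ[ℝ]} (h : ∀ y ∈ bas, ph y ∈ T) {y : Q} (hy : cond y = true) : ph y ∈ T := by
  obtain ⟨h1, h2, h3, h4⟩ := cond_iff.1 hy
  simp only [bas, List.forall_mem_cons] at h
  obtain ⟨b1, b2, b3, b4, b5, b6, b7, b8, -⟩ := h
  have := add_mem (add_mem (add_mem (add_mem (add_mem (add_mem (add_mem
    (zsmul_mem b1 ((y.r.a - y.j.a - (y.k.b - y.j.b) + (y.k.a - y.j.a)) / 2))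
    (zsmul_mem b2 ((y.r.b - y.j.b - (y.k.a - y.j.a)) / 2)))
    (zsmul_mem b3 ((y.i.a - y.j.a - (y.k.b - y.j.b) + 2 * (y.k.a - y.j.a)) / 2)))
    (zsmul_mem b4 ((y.i.b - y.j.b - (y.k.a - y.j.a) + (y.k.b - y.j.b)) / 2)))
    (zsmul_mem b5 y.j.a)) (zsmul_mem b6 y.j.b))
    (zsmul_mem b7 ((y.k.b - y.j.b) - (y.k.a - y.j.a)))) (zsmul_mem b8 (y.k.a - y.j.a))
  simp only [← ph_smul, ← ph_add] at this
  convert this using 2
  ext <;> simp only [Q.add, Q.smul, ZT.add, ZT.smul, Int.add_def, Int.mul_def] <;> omega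

/-- the icosians in coordinates -/
def SS : AddSubgroup ℍ[ℝ] where
  carrier := {x | ∃ y, cond y = true ∧ x = ph y}
  zero_mem' := ⟨⟨⟨0, 0⟩, ⟨0, 0⟩, ⟨0, 0⟩, ⟨0, 0⟩⟩, by decide +kernel, by ext <;> simp [ph, zt]⟩
  add_mem' := by
    rintro _ _ ⟨y, h1, rfl⟩ ⟨z, h2, rfl⟩
    refine ⟨y.add z, ?_, (ph_add _ _).symm⟩
    simp only [cond_iff, Q.add, ZT.add, Int.add_def] at *
    omega
  neg_mem' := by
    rintro _ ⟨y, h1, rfl⟩
    refine ⟨y.smul (-1), ?_, by rw [ph_smul]; simp⟩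
    simp only [cond_iff, Q.smul, ZT.smul, Int.mul_def] at *
    omega

/-- half of the product -/
def hm (x y : Q) : Q := (x.mul y).dv 2
noncomputable def hmOK (x y : Q) : Bool := ((hm x y).smul 2).beq (x.mul y)
theorem ph_hm {x y : Q} (h : hmOK x y = true) : ph (hm x y) = ph x * ph y :=
  zsmul_cancel two_ne_zero (by rw [← ph_smul, Q.beq_iff.1 h, ph_mul])

theorem SS_mul {x z : ℍ[ℝ]} (hx : x ∈ SS) (hz : z ∈ SS) : x * z ∈ SS := by
  have key : allL (fun a => allL (fun b => an (hmOK a b) (cond (hm a b))) bas) bas = true := by decide +kernel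
  simp only [allL_iff, an_iff] at key
  obtain ⟨y, hy, rfl⟩ := hx
  obtain ⟨w, hw, rfl⟩ := hz
  exact mem_of_bas (T := SS.comap (AddMonoidHom.mulRight (ph w))) (fun a ha =>
    mem_of_bas (T := SS.comap (AddMonoidHom.mulLeft (ph a))) (fun b hb =>
      ⟨_, (key a ha b hb).2, (ph_hm (key a ha b hb).1).symm⟩) hw) hy

def one : Q := ⟨⟨2, 0⟩, ⟨0, 0⟩, ⟨0, 0⟩, ⟨0, 0⟩⟩
def zero : Q := ⟨⟨0, 0⟩, ⟨0, 0⟩, ⟨0, 0⟩, ⟨0, 0⟩⟩
def gI : Q := ⟨⟨0, 0⟩, ⟨2, 0⟩, ⟨0, 0⟩, ⟨0, 0⟩⟩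
def gZ : Q := ⟨⟨1, 0⟩, ⟨1, -1⟩, ⟨0, 0⟩, ⟨0, 1⟩⟩
def hh : Q := ⟨⟨1, -2⟩, ⟨1, 0⟩, ⟨1, 0⟩, ⟨1, 0⟩⟩
theorem ph_one : ph one = 1 := by ext <;> simp [ph, one, zt]
theorem ph_zero : ph zero = 0 := by ext <;> simp [ph, zero, zt]
theorem ph_gI : ph gI = qI := by ext <;> simp [ph, gI, zt, qI]
theorem ph_gZ : ph gZ = ⟨1 / 2, sig / 2, 0, tau / 2⟩ := by
  ext <;> simp [ph, gZ, zt, sig, tau]
  ring
theorem ph_hh : ph hh = icoH := by
  ext <;> simp [ph, hh, zt, icoH, tau]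
  ring

theorem exists_ph {x : ℍ[ℝ]} (hx : x ∈ icosians) : ∃ y, cond y = true ∧ x = ph y := by
  let R : Subring ℍ[ℝ] := { SS with mul_mem' := SS_mul, one_mem' := ⟨one, by decide +kernel, ph_one.symm⟩ }
  refine (Subring.closure_le (t := R)).2 ?_ hx
  rintro _ (rfl | rfl)
  exacts [⟨gI, by decide +kernel, ph_gI.symm⟩, ⟨gZ, by decide +kernel, ph_gZ.symm⟩]

/-- words in the generators -/
noncomputable def wd (l : List Bool) (k : Q → Bool) : Q → Bool :=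
  List.rec k (fun b _ ih x => an (hmOK x (cond' b gZ gI)) (fQ (hm x (cond' b gZ gI)) ih)) l

theorem wd_spec {k : Q → Bool} (l : List Bool) : ∀ x, ph x ∈ icosians → wd l k x = true →
    ∃ y, ph y ∈ icosians ∧ k y = true := by
  induction l with
  | nil => exact fun x h1 h2 => ⟨x, h1, h2⟩
  | cons b l ih =>
    intro x h1 h2
    obtain ⟨h3, h4⟩ := an_iff.1 (show an (hmOK x (cond' b gZ gI)) (fQ (hm x (cond' b gZ gI)) (wd l k)) = true from h2)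
    refine ih _ ?_ (fQ_eq _ _ ▸ h4)
    rw [ph_hm h3]
    refine mul_mem h1 (Subring.subset_closure ?_)
    cases b
    exacts [Or.inl ph_gI, Or.inr ph_gZ]

theorem ph_mem {y : Q} (hy : cond y = true) : ph y ∈ icosians := by
  have h1 : ph one ∈ icosians := ph_one ▸ one_mem _
  have key : ∀ l y, wd l (Q.beq y) one = true → ph y ∈ icosians := fun l y h => by
    obtain ⟨z, h2, h3⟩ := wd_spec l _ h1 h
    rwa [Q.beq_iff.1 h3]
  have t : ph ⟨⟨0, 2⟩, ⟨0, 0⟩, ⟨0, 0⟩, ⟨0, 0⟩⟩ ∈ icosians := by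
    have := add_mem (key [false, false, false, true, false, true] (⟨⟨0, 1⟩, ⟨1, -1⟩, ⟨1, 0⟩, ⟨0, 0⟩⟩) (by decide +kernel))
      (key [false, false, false, true, false, true, false, true] (Q.star ⟨⟨0, 1⟩, ⟨1, -1⟩, ⟨1, 0⟩, ⟨0, 0⟩⟩) (by decide +kernel))
    rwa [← ph_add, show Q.add _ _ = ⟨⟨0, 2⟩, ⟨0, 0⟩, ⟨0, 0⟩, ⟨0, 0⟩⟩ from Q.beq_iff.1 (by decide +kernel)] at this
  have w := key [false, false, false, true, false, true, false, true, true, false]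
    ⟨⟨1, 0⟩, ⟨1, 0⟩, ⟨1, 0⟩, ⟨1, 0⟩⟩ (by decide +kernel)
  have i := key [false] gI (by decide +kernel)
  have z := key [true] gZ (by decide +kernel)
  have m : ∀ x, ph x ∈ icosians → hmOK ⟨⟨0, 2⟩, ⟨0, 0⟩, ⟨0, 0⟩, ⟨0, 0⟩⟩ x = true →
      ph (hm ⟨⟨0, 2⟩, ⟨0, 0⟩, ⟨0, 0⟩, ⟨0, 0⟩⟩ x) ∈ icosians := fun x h1 h2 => ph_hm h2 ▸ mul_mem t h1
  refine mem_of_bas (T := icosians.toAddSubgroup) ?_ hy
  simp only [bas, List.forall_mem_cons]
  have e : ∀ {x y}, Q.beq x y = true → ph x ∈ icosians → ph y ∈ icosians := fun h => Q.beq_iff.1 h ▸ id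
  exact ⟨h1, t, i, e (by decide +kernel) (m _ i (by decide +kernel)), w, e (by decide +kernel) (m _ w (by decide +kernel)), z,
    e (by decide +kernel) (m _ z (by decide +kernel)), by simp⟩

theorem star_mem {x : ℍ[ℝ]} (hx : x ∈ icosians) : star x ∈ icosians := by
  obtain ⟨y, hy, rfl⟩ := exists_ph hx
  rw [← ph_star]
  refine ph_mem ?_
  have : ∀ a : ℤ, Int.neg a = -a := fun _ => rfl
  simp only [cond_iff, Q.star, ZT.neg, this] at *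
  omega

theorem icoH_mem : icoH ∈ icosians := ph_hh ▸ ph_mem (by decide +kernel)

/-- test for membership in a left ideal of norm 2 -/
noncomputable def dv (y g : Q) : Bool := fQ (y.mul g.star) fun w => fQ (w.dv 4) fun u =>
  an ((u.smul 4).beq w) (cond u)

theorem dv_iff {y g : Q} (hg : star (ph g) * ph g = 2) : dv y g = true ↔ ph y ∈ leftIdeal (ph g) := by
  simp only [dv, fQ_eq, an_iff, Q.beq_iff]
  constructor
  · rintro ⟨h1, h2⟩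
    refine ⟨_, ph_mem h2, zsmul_cancel (k := 4) (by norm_num) ?_⟩
    rw [← smul_mul_assoc, ← ph_smul 4 (Q.dv _ _), h1, ph_mul, ph_star, smul_mul_assoc, mul_assoc, hg, mul_two, ← two_zsmul,
      smul_smul]
    rfl
  · rintro ⟨a, ha, e⟩
    obtain ⟨w, hw, rfl⟩ := exists_ph ha
    have h1 : y.mul g.star = w.smul 4 := ph_inj (by
      rw [ph_mul, ph_star, e, mul_assoc, self_mul_star, ← star_mul_self, hg, ph_smul, mul_two, ← two_zsmul, smul_smul]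
      rfl)
    have h2 : (w.smul 4).dv 4 = w := by
      have : ∀ a : ℤ, Int.ediv (4 * a) 4 = a := fun a => Int.mul_ediv_cancel_left a (by norm_num)
      ext <;> simp only [Q.smul, Q.dv, ZT.smul, ZT.dv, Int.mul_def, this]
    rw [h1, h2]; exact ⟨rfl, hw⟩

theorem star_h : star icoH * icoH = 2 := by
  rw [star_mul_self, ← ph_hh, normSq_ph, show hh.nm = ⟨8, 0⟩ by rfl]
  simp only [zt]; norm_num; rfl
theorem h_star : icoH * star icoH = 2 := by rw [self_mul_star, ← star_mul_self, star_h]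

theorem dv_h {y : Q} : dv y hh = true ↔ ph y ∈ leftIdeal icoH := by
  rw [dv_iff (by rw [ph_hh, star_h]), ph_hh]
theorem dv_h' {y : Q} : dv y hh.star = true ↔ ph y ∈ leftIdeal (star icoH) := by
  rw [dv_iff (by rw [ph_star, ph_hh, star_star, h_star]), ph_star, ph_hh]

end CA.Ico
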