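import Cfsg.Agent.Lib.Ico.Arith

/-!
The icosian Leech lattice and its reflections as elements of `twoJ2`.
-/

set_option autoImplicit false

namespace CA.Ico
open Cfsg.Spor Quaternion CA.Fi CA.TC Equiv

abbrev V3 := Fin 3 → ℍ[ℝ]

theorem li_sub {q x y : ℍ[ℝ]} (hx : x ∈ leftIdeal q) (hy : y ∈ leftIdeal q) : x - y ∈ leftIdeal q := by
  obtain ⟨a, ha, rfl⟩ := hx
  obtain ⟨b, hb, rfl⟩ := hy
  exact ⟨a - b, sub_mem ha hb, (sub_mul _ _ _).symm⟩
theorem li_mul {q c x : ℍ[ℝ]} (hc : c ∈ icosians) (hx : x ∈ leftIdeal q) : c * x ∈ leftIdeal q := by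
  obtain ⟨a, ha, rfl⟩ := hx
  exact ⟨c * a, mul_mem hc ha, (mul_assoc _ _ _).symm⟩

theorem L_sub {x y : V3} (hx : x ∈ icoLeech) (hy : y ∈ icoLeech) : x - y ∈ icoLeech := by
  obtain ⟨a1, a2, a3, a4⟩ := hx
  obtain ⟨b1, b2, b3, b4⟩ := hy
  refine ⟨fun t => sub_mem (a1 t) (b1 t), ?_, ?_, ?_⟩
  · convert li_sub a2 b2 using 1; simp only [Pi.sub_apply]; abel
  · convert li_sub a3 b3 using 1; simp only [Pi.sub_apply]; abel
  · convert li_sub a4 b4 using 1; simp only [Pi.sub_apply]; abel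
theorem L_smul {c : ℍ[ℝ]} (hc : c ∈ icosians) {x : V3} (hx : x ∈ icoLeech) : c • x ∈ icoLeech := by
  obtain ⟨a1, a2, a3, a4⟩ := hx
  refine ⟨fun t => mul_mem hc (a1 t), ?_, ?_, ?_⟩
  · convert li_mul hc a2 using 1; simp only [Pi.smul_apply, smul_eq_mul, mul_sub]
  · convert li_mul hc a3 using 1; simp only [Pi.smul_apply, smul_eq_mul, mul_sub]
  · convert li_mul hc a4 using 1; simp only [Pi.smul_apply, smul_eq_mul, mul_add]

theorem L_shape {x : V3} (hx : x ∈ icoLeech) : ∃ s ∈ icosians, ∃ q ∈ icosians, ∃ n ∈ icosians,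
    x 0 = s * star icoH + q * icoH - 2 * x 1 ∧ x 2 = x 1 - q * icoH ∧
    x 1 * star icoH = s * star icoH * star icoH + 2 * n := by
  obtain ⟨a1, ⟨p, hp, a2⟩, ⟨q, hq, a3⟩, ⟨s, hs, a4⟩⟩ := hx
  refine ⟨s, hs, q, hq, q - p - x 1 * star icoH, sub_mem (sub_mem hq hp) (mul_mem (a1 1) (star_mem icoH_mem)),
    ?_, ?_, ?_⟩
  · rw [← a3, ← a4]; noncomm_ring
  · rw [← a3]; noncomm_ring
  · have e : ∀ u : ℍ[ℝ], 2 * u = u * icoH * star icoH := fun u => by rw [mul_assoc, h_star, two_mul, mul_two]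
    rw [mul_sub, mul_sub, e q, e p, ← a2, ← a3, ← a4]; noncomm_ring

theorem qip_def (x r : V3) : qip x r = x 0 * star (r 0) + x 1 * star (r 1) + x 2 * star (r 2) := by
  rw [qip, Fin.sum_univ_three]

theorem half_mem {x r : V3} (hx : x ∈ icoLeech) (hr : r ∈ icoLeech) : (1 / 2 : ℝ) • qip x r ∈ icosians := by
  obtain ⟨s, hs, q, hq, n, hn, a0, a2, a1⟩ := L_shape hx
  obtain ⟨s', hs', q', hq', n', hn', b0, b2, b1⟩ := L_shape hr
  have h1 := hx.1 1
  have h2 := star_mem (hr.1 1)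
  have hh := icoH_mem
  have hh' := star_mem icoH_mem
  have b1' := congrArg star b1
  have s2 : star (2 : ℍ[ℝ]) = 2 := by simp
  simp only [star_mul, star_add, star_star, s2] at b1'
  have key : qip x r = 2 * (s * star s' - n * star q' - q * star n' + 2 * (q * star q') -
      s * star icoH * star (r 1) - q * icoH * star (r 1) - x 1 * icoH * star s' - x 1 * star icoH * star q' +
      3 * (x 1 * star (r 1))) := by
    rw [qip_def, a0, a2, b0, b2]
    simp only [star_mul, star_add, star_sub, star_star, s2]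
    linear_combination (norm := noncomm_ring) s * star_h * star s' + (q * h_star * star q' + q * h_star * star q') -
      a1 * star q' - q * b1'
  rw [key, ← smul_mul_assoc, show (1 / 2 : ℝ) • (2 : ℍ[ℝ]) = 1 by
    rw [← one_add_one_eq_two (R := ℍ[ℝ]), ← two_smul ℝ, smul_smul]; norm_num, one_mul]
  have := star_mem hs'; have := star_mem hq'; have := star_mem hn'
  have t2 : (2 : ℍ[ℝ]) ∈ icosians := natCast_mem _ 2
  have t3 : (3 : ℍ[ℝ]) ∈ icosians := natCast_mem _ 3
  repeat first | assumption | apply add_mem | apply sub_mem | apply mul_mem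

theorem qrefl_eq (r x : V3) : qrefl r x = x - ((1 / 2 : ℝ) • qip x r) • r := rfl
theorem qip_sub_left (x y r : V3) : qip (x - y) r = qip x r - qip y r := by
  simp only [qip_def, Pi.sub_apply]; noncomm_ring
theorem qip_smul_left (c : ℍ[ℝ]) (x r : V3) : qip (c • x) r = c * qip x r := by
  simp only [qip_def, Pi.smul_apply, smul_eq_mul]; noncomm_ring
theorem qip_sub_right (x y r : V3) : qip r (x - y) = qip r x - qip r y := by
  simp only [qip_def, Pi.sub_apply, star_sub]; noncomm_ring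
theorem qip_smul_right (c : ℍ[ℝ]) (x r : V3) : qip r (c • x) = qip r x * star c := by
  simp only [qip_def, Pi.smul_apply, smul_eq_mul, star_mul]; noncomm_ring
theorem star_qip (x r : V3) : star (qip x r) = qip r x := by
  simp only [qip_def, star_add, star_mul, star_star]

theorem qrefl_sub (s x y : V3) : qrefl s (x - y) = qrefl s x - qrefl s y := by
  simp only [qrefl_eq, qip_sub_left, smul_sub, sub_smul]; abel
theorem qrefl_smul (s : V3) (c : ℍ[ℝ]) (x : V3) : qrefl s (c • x) = c • qrefl s x := by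
  simp only [qrefl_eq, qip_smul_left, smul_sub, smul_smul, mul_smul_comm]

theorem four_eq : (4 : ℍ[ℝ]) = (4 : ℝ) • (1 : ℍ[ℝ]) := by
  rw [← Algebra.algebraMap_eq_smul_one]; exact (map_ofNat (algebraMap ℝ ℍ[ℝ]) 4).symm

theorem qip_qrefl {s : V3} (hs : qip s s = 4) (x y : V3) : qip (qrefl s x) (qrefl s y) = qip x y := by
  simp only [qrefl_eq, qip_sub_left, qip_sub_right, qip_smul_left, qip_smul_right, hs, Quaternion.star_smul, star_qip,
    four_eq, smul_mul_assoc, mul_smul_comm, star_trivial, mul_one, smul_smul, sub_mul]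
  module
theorem qrefl_qrefl {s : V3} (hs : qip s s = 4) (x : V3) : qrefl s (qrefl s x) = x := by
  have : qrefl s s = -s := by
    rw [qrefl_eq, hs, four_eq, smul_smul, smul_assoc, one_smul]; module
  rw [qrefl_eq s x, qrefl_sub, qrefl_smul, this, qrefl_eq, smul_neg]; abel

/-- minimal vectors -/
def Gd (r : V3) : Prop := r ∈ icoLeech ∧ qip r r = 4

theorem qrefl_mem {r x : V3} (hr : r ∈ icoLeech) (hx : x ∈ icoLeech) : qrefl r x ∈ icoLeech :=
  L_sub hx (L_smul (half_mem hx hr) hr)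
theorem Gd.qrefl {s r : V3} (hs : Gd s) (hr : Gd r) : Gd (qrefl s r) :=
  ⟨qrefl_mem hs.1 hr.1, (qip_qrefl hs.2 _ _).trans hr.2⟩

open Classical in
/-- the reflection in `r` -/
noncomputable def rf (r : V3) : twoJ2 :=
  if h : Gd r then ⟨Function.Involutive.toPerm (fun x : icoLeech => ⟨qrefl r x, qrefl_mem h.1 x.2⟩)
    (fun x => Subtype.ext (qrefl_qrefl h.2 _)), Subgroup.subset_closure ⟨⟨r, h.1⟩, h.2, fun _ => rfl⟩⟩ else 1

theorem rf_apply {r : V3} (h : Gd r) (x : icoLeech) : ((rf r : Perm icoLeech) x : V3) = qrefl r x := by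
  rw [rf, dif_pos h]; rfl

theorem two_ext {f g : twoJ2} (h : ∀ x, ((f : Perm icoLeech) x : V3) = (g : Perm icoLeech) x) : f = g :=
  Subtype.ext (Equiv.ext fun x => Subtype.ext (h x))

theorem rf_sq (r : V3) : rf r * rf r = 1 := by
  by_cases h : Gd r
  · refine two_ext fun x => ?_
    rw [Subgroup.coe_mul, Perm.mul_apply, rf_apply h, rf_apply h, qrefl_qrefl h.2]; rfl
  · rw [rf, dif_neg h, mul_one]

theorem rf_conj {s r : V3} (hs : Gd s) (hr : Gd r) : rf s * rf r * rf s = rf (qrefl s r) := by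
  refine two_ext fun x => ?_
  simp only [Subgroup.coe_mul, Perm.mul_apply, rf_apply hs, rf_apply hr, rf_apply (hs.qrefl hr)]
  rw [qrefl_eq r, qrefl_sub, qrefl_smul, qrefl_qrefl hs.2, qrefl_eq (qrefl s r), ← qip_qrefl hs.2 (qrefl s x) r,
    qrefl_qrefl hs.2]

theorem rf_smul {r : V3} {c : ℍ[ℝ]} (hr : Gd r) (hc : Gd (c • r)) : rf (c • r) = rf r := by
  have h1 : c * star c = 1 := by
    have := hc.2
    rw [qip_smul_left, qip_smul_right, hr.2, four_eq, smul_mul_assoc, one_mul, mul_smul_comm] at this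
    exact smul_right_injective _ (by norm_num) this
  refine two_ext fun x => ?_
  rw [rf_apply hr, rf_apply hc, qrefl_eq, qrefl_eq, qip_smul_right, smul_smul, smul_mul_assoc, mul_assoc,
    star_mul_self, ← self_mul_star, h1, mul_one]

theorem Gd.unit {r : V3} (hr : Gd r) {c : ℍ[ℝ]} (hc : c ∈ icosians) (h1 : c * star c = 1) : Gd (c • r) :=
  ⟨L_smul hc hr.1, by
    rw [qip_smul_left, qip_smul_right, hr.2, four_eq, smul_mul_assoc, one_mul, mul_smul_comm, h1]⟩

theorem eq_top_of_rf {K : Subgroup twoJ2} (h : ∀ r, Gd r → rf r ∈ K) : K = ⊤ := by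
  refine top_unique ((Subgroup.closure_closure_coe_preimage (k := {f | IsIcoReflection f})).symm.trans_le
    ((Subgroup.closure_le _).2 ?_))
  rintro f ⟨r, h1, h2⟩
  have : f = rf r := two_ext fun x => by rw [h2, rf_apply ⟨r.2, h1⟩]
  exact this ▸ h _ ⟨r.2, h1⟩

/-! ### Swapping coordinates -/

theorem half_two (u : ℍ[ℝ]) : (1 / 2 : ℝ) • (u * star icoH * icoH) = u := by
  rw [mul_assoc, star_h, mul_two, ← two_smul ℝ, smul_smul]; norm_num

theorem qrefl_s01 (x : V3) : qrefl ![icoH, -icoH, 0] x = ![x 1, x 0, x 2] := by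
  have : qip x ![icoH, -icoH, 0] = (x 0 - x 1) * star icoH := by simp [qip_def, add_mul, sub_eq_add_neg]
  ext1 t
  fin_cases t <;> simp only [qrefl, this] <;> simp [-one_div, half_two]
theorem qrefl_s12 (x : V3) : qrefl ![0, icoH, -icoH] x = ![x 0, x 2, x 1] := by
  have : qip x ![0, icoH, -icoH] = (x 1 - x 2) * star icoH := by simp [qip_def, add_mul, sub_eq_add_neg]
  ext1 t
  fin_cases t <;> simp only [qrefl, this] <;> simp [-one_div, half_two]

end CA.Ico
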