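import Cfsg.Agent.Lib.Ico.Lat

/-!
Integer coordinates for vectors of the icosian Leech lattice, enumeration of short icosians.
-/

set_option autoImplicit false

namespace CA.Ico
open Cfsg.Spor Quaternion CA.Fi CA.TC Equiv

@[ext] structure V where
  x : Q
  y : Q
  z : Q

noncomputable def phV (v : V) : V3 := ![ph v.x, ph v.y, ph v.z]
namespace V
def qip (a b : V) : Q := ((a.x.mul b.x.star).add (a.y.mul b.y.star)).add (a.z.mul b.z.star)
def lm (c : Q) (v : V) : V := ⟨c.mul v.x, c.mul v.y, c.mul v.z⟩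
def smul (k : ℤ) (v : V) : V := ⟨v.x.smul k, v.y.smul k, v.z.smul k⟩
def sub (a b : V) : V := ⟨a.x.sub b.x, a.y.sub b.y, a.z.sub b.z⟩
noncomputable def beq (a b : V) : Bool := an (a.x.beq b.x) (an (a.y.beq b.y) (a.z.beq b.z))
theorem beq_iff {a b : V} : beq a b = true ↔ a = b := by simp [beq, Q.beq_iff, V.ext_iff]
end V
noncomputable def fV (v : V) (k : V → Bool) : Bool := fQ v.x fun a => fQ v.y fun b => fQ v.z fun c => k ⟨a, b, c⟩
theorem fV_eq (v : V) (k : V → Bool) : fV v k = k v := by simp only [fV, fQ_eq]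

theorem ph_qip (a b : V) : ph (a.qip b) = (2 : ℤ) • qip (phV a) (phV b) := by
  simp only [V.qip, ph_add, ph_mul, ph_star, qip_def, smul_add]; rfl
theorem phV_lm (c : Q) (v : V) : phV (v.lm c) = (2 : ℤ) • (ph c • phV v) := by
  ext1 t; fin_cases t <;> exact ph_mul _ _
theorem phV_smul (k : ℤ) (v : V) : phV (v.smul k) = k • phV v := by
  ext1 t; fin_cases t <;> exact ph_smul _ _
theorem phV_sub (a b : V) : phV (a.sub b) = phV a - phV b := by
  ext1 t; fin_cases t <;> exact ph_sub _ _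
theorem phV_inj {a b : V} (h : phV a = phV b) : a = b :=
  V.ext (ph_inj (congrFun h 0)) (ph_inj (congrFun h 1)) (ph_inj (congrFun h 2))

/-- eight times the reflection of `r` in `s` -/
def W8 (s r : V) : V := (r.smul 8).sub (s.lm (r.qip s))
theorem phV_W8 (s r : V) : phV (W8 s r) = (8 : ℤ) • qrefl (phV s) (phV r) := by
  rw [W8, phV_sub, phV_smul, phV_lm, ph_qip, qrefl_eq, smul_assoc, smul_assoc]
  generalize qip (phV r) (phV s) • phV s = u
  module
noncomputable def w8 (s r : V) (k : V → Bool) : Bool := fQ (r.qip s) fun c => fV ((r.smul 8).sub (s.lm c)) k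
theorem w8_eq (s r : V) (k : V → Bool) : w8 s r k = k (W8 s r) := by simp only [w8, fQ_eq, fV_eq, W8]

/-- the reflection of `r` in `s` lies on the line of `q` -/
noncomputable def chk (s r q : V) : Bool := w8 s r fun W => fQ (W.qip q) fun d => (W.smul 16).beq (q.lm d)
theorem chk_spec {s r q : V} (h : chk s r q = true) (hs : Gd (phV s)) (hr : Gd (phV r)) (hq : Gd (phV q)) :
    rf (phV s) * rf (phV r) * rf (phV s) = rf (phV q) := by
  rw [chk, w8_eq, fQ_eq, V.beq_iff] at h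
  have h1 := congrArg phV h
  rw [phV_smul, phV_lm, phV_W8] at h1
  have h2 : qrefl (phV s) (phV r) = ((1 / 64 : ℝ) • ph ((W8 s r).qip q)) • phV q := by
    rw [smul_assoc]
    generalize ph ((W8 s r).qip q) • phV q = u at h1 ⊢
    linear_combination (norm := module) (1 / 128 : ℝ) • h1
  rw [rf_conj hs hr, h2, rf_smul hq (h2 ▸ hs.qrefl hr)]

theorem cond_iff_mem {y : Q} : cond y = true ↔ ph y ∈ icosians :=
  ⟨ph_mem, fun h => by obtain ⟨w, h1, h2⟩ := exists_ph h; rwa [ph_inj h2]⟩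

noncomputable def gd (v : V) : Bool := an (an (cond v.x) (an (cond v.y) (cond v.z)))
  (an (an (dv (v.x.sub v.y) hh) (an (dv (v.y.sub v.z) hh) (dv ((v.x.add v.y).add v.z) hh.star)))
    (((v.x.nm.add v.y.nm).add v.z.nm).beq ⟨16, 0⟩))

theorem gd_iff {v : V} : gd v = true ↔ Gd (phV v) := by
  have e : qip (phV v) (phV v) = ((zt ((v.x.nm.add v.y.nm).add v.z.nm) / 4 : ℝ) : ℍ[ℝ]) := by
    rw [qip_def]
    simp only [self_mul_star, ← coe_add, zt_add]
    congr 1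
    change normSq (ph _) + normSq (ph _) + normSq (ph _) = _
    simp only [normSq_ph]; ring
  have e2 : (4 : ℍ[ℝ]) = ((zt ⟨16, 0⟩ / 4 : ℝ) : ℍ[ℝ]) := by
    rw [show zt ⟨16, 0⟩ / 4 = ((4 : ℕ) : ℝ) by norm_num [zt], coe_natCast]; rfl
  simp only [gd, an_iff, cond_iff_mem, dv_h, dv_h', ph_sub, ph_add, ZT.beq_iff, Gd, e, e2, coe_inj]
  refine and_assoc.symm.trans (and_congr ?_ ⟨fun h => by rw [h], fun h => zt_inj (by linarith)⟩)
  simp only [icoLeech, Set.mem_setOf_eq, Fin.forall_fin_succ]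
  simp [phV]

theorem exists_phV {r : V3} (h : Gd r) : ∃ v, r = phV v ∧ gd v = true := by
  obtain ⟨x, -, hx⟩ := exists_ph (h.1.1 0)
  obtain ⟨y, -, hy⟩ := exists_ph (h.1.1 1)
  obtain ⟨z, -, hz⟩ := exists_ph (h.1.1 2)
  have : r = phV ⟨x, y, z⟩ := by ext1 t; fin_cases t; exacts [hx, hy, hz]
  exact ⟨_, this, gd_iff.2 (this ▸ h)⟩

/-! ### Enumeration -/

def EE : List (ℕ × ZT) := [(0, ⟨0, 0⟩), (2, ⟨1, 0⟩), (2, ⟨-1, 0⟩), (3, ⟨0, 1⟩), (3, ⟨0, -1⟩), (3, ⟨1, -1⟩), (3, ⟨-1, 1⟩),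
  (7, ⟨1, 1⟩), (7, ⟨-1, -1⟩), (7, ⟨2, -1⟩), (7, ⟨-2, 1⟩), (8, ⟨2, 0⟩), (8, ⟨-2, 0⟩), (10, ⟨1, -2⟩), (10, ⟨-1, 2⟩),
  (12, ⟨0, 2⟩), (12, ⟨0, -2⟩), (12, ⟨2, -2⟩), (12, ⟨-2, 2⟩), (15, ⟨2, 1⟩), (15, ⟨-2, -1⟩), (15, ⟨3, -1⟩), (15, ⟨-3, 1⟩)]

theorem mem_EE {x : ZT} (h : x.f ≤ 16) : (x.f.toNat, x) ∈ EE := by
  obtain ⟨a, b⟩ := x
  simp only [ZT.f] at h ⊢
  have h1 : b ≤ 2 := by nlinarith [sq_nonneg (2 * a + b)]
  have h2 : -2 ≤ b := by nlinarith [sq_nonneg (2 * a + b)]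
  have h3 : a ≤ 3 := by nlinarith [sq_nonneg (a + 3 * b)]
  have h4 : -3 ≤ a := by nlinarith [sq_nonneg (a + 3 * b)]
  interval_cases a <;> interval_cases b <;> simp [EE] at h ⊢

noncomputable def allQ (f : Q → Bool) : Bool :=
  allL (fun a => allL (fun b => frc (Nat.add a.1 b.1) fun s => cond' (lt' 16 s) true
    (allL (fun c => frc (Nat.add s c.1) fun t => cond' (lt' 16 t) true
      (allL (fun d => cond' (lt' 16 (Nat.add t d.1)) true (cond' (cond ⟨a.2, b.2, c.2, d.2⟩)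
        (f ⟨a.2, b.2, c.2, d.2⟩) true)) EE)) EE)) EE) EE

theorem cond'_imp {b x : Bool} : cond' b x true = true ↔ (b = true → x = true) := by cases b <;> simp [cond']
theorem cond'_or {b x : Bool} : cond' b true x = true ↔ (b = true ∨ x = true) := by cases b <;> simp [cond']

theorem allQ_spec {f : Q → Bool} (h : allQ f = true) {y : Q} (h1 : cond y = true) (h2 : y.tr ≤ 16) : f y = true := by
  have := y.r.f_nonneg; have := y.i.f_nonneg; have := y.j.f_nonneg; have := y.k.f_nonneg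
  rw [Q.tr] at h2
  simp only [allQ, allL_iff, frc_eq, cond'_or, cond'_imp, lt'_iff, Nat.add_eq] at h
  refine (((h _ (mem_EE (x := y.r) (by omega)) _ (mem_EE (x := y.i) (by omega))).resolve_left (by simp only; omega)
    _ (mem_EE (x := y.j) (by omega))).resolve_left (by simp only; omega) _ (mem_EE (x := y.k) (by omega))).resolve_left
    (by simp only; omega) h1

/-! ### Codes -/

def fld (n i : ℕ) : ℤ := Int.subNatNat (Nat.land (Nat.shiftRight n i) 15) 8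
def decQ (n : ℕ) : Q := ⟨⟨fld n 0, fld n 4⟩, ⟨fld n 8, fld n 12⟩, ⟨fld n 16, fld n 20⟩, ⟨fld n 24, fld n 28⟩⟩
def decV (n : ℕ) : V := ⟨decQ n, decQ (Nat.shiftRight n 32), decQ (Nat.shiftRight n 64)⟩
def encZ (x : ZT) : ℕ := Nat.add (Int.toNat (Int.add x.a 8)) (Nat.mul 16 (Int.toNat (Int.add x.b 8)))
def encQ (x : Q) : ℕ := Nat.add (encZ x.r) (Nat.mul 256 (Nat.add (encZ x.i) (Nat.mul 256
  (Nat.add (encZ x.j) (Nat.mul 256 (encZ x.k))))))
def encV (v : V) : ℕ := Nat.add (encQ v.x) (Nat.mul 4294967296 (Nat.add (encQ v.y) (Nat.mul 4294967296 (encQ v.z))))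
noncomputable def anyN (f : ℕ → Bool) (n : ℕ) : Bool := Nat.rec false (fun i r => cond' (f i) true r) n
theorem anyN_spec {f : ℕ → Bool} {n : ℕ} (h : anyN f n = true) : ∃ i < n, f i = true := by
  induction n with
  | zero => cases h
  | succ n ih =>
    rcases cond'_or.1 (show cond' (f n) true (anyN f n) = true from h) with h | h
    · exact ⟨n, n.lt_succ_self, h⟩
    · obtain ⟨i, h1, h2⟩ := ih h
      exact ⟨i, h1.trans n.lt_succ_self, h2⟩
/-- entry of a packed table -/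
def ent (t W p : ℕ) : ℕ := Nat.land (Nat.shiftRight t (Nat.mul W p)) (Nat.pred (Nat.pow 2 W))
noncomputable def memQ (t n : ℕ) (y : Q) : Bool := frc (encQ y) fun c =>
  an ((decQ c).beq y) (anyN (fun p => Nat.beq (ent t 32 p) c) n)
theorem memQ_spec {t n : ℕ} {y : Q} (h : memQ t n y = true) : ∃ p < n, decQ (ent t 32 p) = y := by
  rw [memQ, frc_eq, an_iff, Q.beq_iff] at h
  obtain ⟨p, h1, h2⟩ := anyN_spec h.2
  exact ⟨p, h1, by rw [beq_iff.1 h2, h.1]⟩
noncomputable def memV (t n : ℕ) (y : V) : Bool := frc (encV y) fun c =>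
  an ((decV c).beq y) (anyN (fun p => Nat.beq (ent t 96 p) c) n)
theorem memV_spec {t n : ℕ} {y : V} (h : memV t n y = true) : ∃ p < n, decV (ent t 96 p) = y := by
  rw [memV, frc_eq, an_iff, V.beq_iff] at h
  obtain ⟨p, h1, h2⟩ := anyN_spec h.2
  exact ⟨p, h1, by rw [beq_iff.1 h2, h.1]⟩

end CA.Ico
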